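import Mathlib
import Cfsg.Agent.Lib.Helper32.OPG.Defs
import Cfsg.Agent.Lib.Helper67.Siegel.Param
import Cfsg.Agent.Lib.Helper44.SiegelGen
import Cfsg.Agent.Lib.Helper14.Forms

/-!
# Project OPG (S2414): package [BRIDGE] — `Ω` is generated by the Siegel transvection groups

`Helper44.omega_eq_siegelClosure` for `Helper14.plusQF`, transported along `plusQF_coe`; an
element of `siegelSet` with `(u, v)` independent is `IsSiegel v u c`, with `(u, v)` dependent
it is `1`.
-/

set_option autoImplicit false
open scoped Matrix

namespace Cfsg.Agent.Lib.Helper46.OPG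

open Cfsg.Agent.Lib.Helper31.Siegel Cfsg.Agent.Lib.Helper32.OPG

universe u

/-- Transport: a subgroup containing every isometry of `Q' = ⇑Q` that acts as a Siegel
transformation contains `Ω` (dimension at least five). -/
theorem omega_le_of_siegel_act {ι : Type} [Fintype ι] [DecidableEq ι] {F : Type u} [Field F]
    [Fintype F] (Q : QuadraticForm F (ι → F)) (hQ : (QuadraticMap.polarBilin Q).Nondegenerate)
    (h5 : 5 ≤ Fintype.card ι) (Q' : (ι → F) → F) (h : ⇑Q = Q')
    (K : Subgroup ↥(Cfsg.isometryGroup F Q'))
    (hK : ∀ (σ : ↥(Cfsg.isometryGroup F Q')) (u v : ι → F) (c : F), Q' u = 0 → Q' v = 0 →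
      QuadraticMap.polar Q' u v = 0 →
      (∀ x, ((σ : Matrix.GeneralLinearGroup ι F) : Matrix ι ι F) *ᵥ x =
        x + (c * QuadraticMap.polar Q' u x) • v - (c * QuadraticMap.polar Q' v x) • u) →
      σ ∈ K) :
    Cfsg.Omega F Q' ≤ K := by
  subst h
  rw [Cfsg.Agent.Lib.Helper44.omega_eq_siegelClosure Q hQ h5, Subgroup.closure_le]
  rintro g ⟨u, v, c, hu, hv, huv, hmat⟩
  exact hK g u v c hu hv huv
    (fun x => by rw [hmat, Cfsg.Agent.Lib.Helper14.siegelMatrix_mulVec])

/-- The moving part of a Siegel transformation of a dependent pair vanishes. -/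
theorem siegel_move_eq_zero_of_dep {n : ℕ} {F : Type u} [Field F] (u v x : Vec n F) (c s t : F)
    (hst : s • v + t • u = 0) (hne : ¬(s = 0 ∧ t = 0)) :
    (c * B x u) • v - (c * B x v) • u = 0 := by
  have hB : s * B x v + t * B x u = 0 := by
    have h := congrArg (fun w => B x w) hst
    simpa only [B_add_right, B_smul_right, B_zero_right] using h
  have hs : s • ((c * B x u) • v - (c * B x v) • u) = 0 := by
    have e : s • ((c * B x u) • v - (c * B x v) • u) =
        (c * B x u) • (s • v + t • u) - (c * (s * B x v + t * B x u)) • u := by module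
    rw [e, hst, hB]; simp
  have ht : t • ((c * B x u) • v - (c * B x v) • u) = 0 := by
    have e : t • ((c * B x u) • v - (c * B x v) • u) =
        (c * (s * B x v + t * B x u)) • v - (c * B x v) • (s • v + t • u) := by module
    rw [e, hst, hB]; simp
  by_contra hw
  exact hne ⟨(smul_eq_zero.mp hs).resolve_right hw, (smul_eq_zero.mp ht).resolve_right hw⟩

/-- [BRIDGE] `Ω` is generated by the Siegel transvection groups. -/
theorem pkgBridge : PkgBridge.{u} := by
  intro n F _ _ hn K hK
  refine omega_le_of_siegel_act (Cfsg.Agent.Lib.Helper14.plusQF n F)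
    (Cfsg.Agent.Lib.Helper14.plusQF_nondegenerate n F) ?_ (Cfsg.quadFormPlus n F)
    (Cfsg.Agent.Lib.Helper14.plusQF_coe n F) K ?_
  · simp only [Fintype.card_sum, Fintype.card_fin]
    omega
  · intro σ u v c hu hv huv hσ
    have hBuv : B u v = 0 := huv
    have hS : IsSiegel v u c σ := by
      intro x
      rw [hσ x]
      have h1 : QuadraticMap.polar (Cfsg.quadFormPlus n F) u x = B x u := by
        rw [B_comm]; rfl
      have h2 : QuadraticMap.polar (Cfsg.quadFormPlus n F) v x = B x v := by
        rw [B_comm]; rfl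
      rw [h1, h2]
    by_cases hli : LinearIndependent F ![v, u]
    · have hv' : QF n F v = 0 := hv
      have hu' : QF n F u = 0 := hu
      have hline : IsSingLine v u :=
        ⟨hli, hv, hu, by rw [Q_add, hv', hu', B_comm, hBuv]; ring⟩
      exact hK v u hline
        ((Cfsg.Agent.Lib.Helper67.Siegel.pkgParam n F v u hline σ).mpr ⟨c, hS⟩)
    · rw [LinearIndependent.pair_iff] at hli
      simp only [not_forall] at hli
      obtain ⟨s, t, hst, hne⟩ := hli
      have h1 : σ = 1 := by
        apply ext_act
        intro x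
        rw [one_act, hS x]
        have h0 := siegel_move_eq_zero_of_dep u v x c s t hst hne
        rw [add_sub_assoc, h0, add_zero]
      rw [h1]
      exact K.one_mem

end Cfsg.Agent.Lib.Helper46.OPG
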