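import Mathlib
import Cfsg.Agent.Lib.Helper32.OPG.Defs
import Cfsg.Agent.Lib.Helper67.Siegel.Param
import Cfsg.Agent.Lib.Helper44.SiegelGen
import Cfsg.Agent.Lib.Helper14.Forms

/-!
# Project OPG (S2414): package [SIEGOM] — Siegel transvection groups lie in `Ω`

Dictionary between project Siegel's `IsSiegel p r c σ` and `Helper44.siegelElt Q … r p … c`,
transported along `Helper14.plusQF_coe`.
-/

set_option autoImplicit false
open scoped Matrix

namespace Cfsg.Agent.Lib.Helper46.OPG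

open Cfsg.Agent.Lib.Helper31.Siegel Cfsg.Agent.Lib.Helper32.OPG

universe u

/-- Transport: an isometry of `Q' = ⇑Q` that acts as the Siegel transformation `T_{u,v}(c)`
lies in `Ω` (dimension at least five). -/
theorem mem_omega_of_siegel_act {ι : Type} [Fintype ι] [DecidableEq ι] {F : Type u} [Field F]
    [Fintype F] (Q : QuadraticForm F (ι → F)) (hQ : (QuadraticMap.polarBilin Q).Nondegenerate)
    (h5 : 5 ≤ Fintype.card ι) (Q' : (ι → F) → F) (h : ⇑Q = Q')
    (σ : ↥(Cfsg.isometryGroup F Q')) (u v : ι → F) (hu : Q' u = 0) (hv : Q' v = 0)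
    (huv : QuadraticMap.polar Q' u v = 0) (c : F)
    (hσ : ∀ x, ((σ : Matrix.GeneralLinearGroup ι F) : Matrix ι ι F) *ᵥ x =
      x + (c * QuadraticMap.polar Q' u x) • v - (c * QuadraticMap.polar Q' v x) • u) :
    σ ∈ Cfsg.Omega F Q' := by
  subst h
  have e : σ = Cfsg.Agent.Lib.Helper44.siegelElt Q hQ u v hu hv huv c := by
    apply Cfsg.Agent.Lib.Helper14.isom_ext
    rw [Cfsg.Agent.Lib.Helper44.siegelElt_coe]
    exact Matrix.ext_of_mulVec_single fun i => by
      rw [hσ, Cfsg.Agent.Lib.Helper14.siegelMatrix_mulVec]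
  rw [e]
  exact Cfsg.Agent.Lib.Helper44.siegelElt_mem_omega Q hQ h5 u v hu hv huv c

/-- A Siegel transvection of a singular line lies in `Ω` (`n ≥ 3`). -/
theorem isSiegel_mem_omega (n : ℕ) (F : Type u) [Field F] [Fintype F] (hn : 3 ≤ n)
    (p r : Vec n F) (hpr : IsSingLine p r) (c : F) (σ : ↥(Iso n F)) (hc : IsSiegel p r c σ) :
    σ ∈ Cfsg.Omega F (Cfsg.quadFormPlus n F) := by
  have hBpr : B p r = 0 := by
    have h := Q_add p r
    rw [hpr.2.1, hpr.2.2.1, hpr.2.2.2] at h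
    simpa using h.symm
  refine mem_omega_of_siegel_act (Cfsg.Agent.Lib.Helper14.plusQF n F)
    (Cfsg.Agent.Lib.Helper14.plusQF_nondegenerate n F) ?_ (Cfsg.quadFormPlus n F)
    (Cfsg.Agent.Lib.Helper14.plusQF_coe n F) σ r p hpr.2.2.1 hpr.2.1 ?_ c ?_
  · simp only [Fintype.card_sum, Fintype.card_fin]
    omega
  · have h : QuadraticMap.polar (Cfsg.quadFormPlus n F) r p = B r p := rfl
    rw [h, B_comm, hBpr]
  · intro x
    have h1 : QuadraticMap.polar (Cfsg.quadFormPlus n F) r x = B x r := by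
      rw [B_comm]; rfl
    have h2 : QuadraticMap.polar (Cfsg.quadFormPlus n F) p x = B x p := by
      rw [B_comm]; rfl
    rw [h1, h2]
    exact hc x

/-- [SIEGOM] Siegel transvection groups lie in `Ω`. -/
theorem pkgSiegOm : PkgSiegOm.{u} := by
  intro n F _ _ hn p r hpr σ hσ
  obtain ⟨c, hc⟩ := (Cfsg.Agent.Lib.Helper67.Siegel.pkgParam n F p r hpr σ).mp hσ
  exact isSiegel_mem_omega n F hn p r hpr c σ hc

end Cfsg.Agent.Lib.Helper46.OPG
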