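import Mathlib
import Cfsg.Agent.Lib.Helper32.OPG.Defs
import Cfsg.Agent.Lib.Helper46.OPG.SiegOm
import Cfsg.Agent.Lib.Helper99.RootGrp2

/-!
# Project OPG (S2414): package [UOM] — the `SL₂` of a hyperbolic quadruple lies in `Ω`

The unitriangular generators of `SL₂(F)` map to Siegel transvections of the singular lines
`⟨p, r⟩` and `⟨s, t⟩`, which lie in `Ω` by [SIEGOM].
-/

set_option autoImplicit false
open scoped Matrix

namespace Cfsg.Agent.Lib.Helper46.OPG

open Cfsg.Agent.Lib.Helper31.Siegel Cfsg.Agent.Lib.Helper32.Siegel Cfsg.Agent.Lib.Helper32.OPG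

universe u

/-- [UOM] the `SL₂` of a hyperbolic quadruple lies in `Ω`. -/
theorem pkgUOm : PkgUOm.{u} := by
  intro n F _ _ hn p r s t h M
  have hpr : IsSingLine p r :=
    isSingLine_of s t h.ps h.rs h.rt h.Qp h.Qr h.pr
  have hst : IsSingLine s t :=
    isSingLine_of p r h.sp h.tp h.tr h.Qs h.Qt h.st
  have hle : Cfsg.upperUnipotentSL2 F ⊔ Cfsg.lowerUnipotentSL2 F ≤
      (Cfsg.Omega F (Cfsg.quadFormPlus n F)).comap (sl2Hom h) := by
    apply sup_le
    · rw [Cfsg.upperUnipotentSL2, Subgroup.closure_le]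
      rintro g ⟨h10, h00, h11⟩
      rw [SetLike.mem_coe, Subgroup.mem_comap]
      refine isSiegel_mem_omega n F hn p r hpr ((g : Matrix (Fin 2) (Fin 2) F) 0 1) _ ?_
      intro v
      rw [sl2Hom_act, sl2Lin_apply, h10, h00, h11]
      module
    · rw [Cfsg.lowerUnipotentSL2, Subgroup.closure_le]
      rintro g ⟨h01, h00, h11⟩
      rw [SetLike.mem_coe, Subgroup.mem_comap]
      refine isSiegel_mem_omega n F hn s t hst (-(g : Matrix (Fin 2) (Fin 2) F) 1 0) _ ?_
      intro v
      rw [sl2Hom_act, sl2Lin_apply, h01, h00, h11]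
      module
  have hM : M ∈ Cfsg.upperUnipotentSL2 F ⊔ Cfsg.lowerUnipotentSL2 F := by
    rw [Cfsg.Agent.Lib.Helper99.sl2_top]
    exact Subgroup.mem_top M
  exact hle hM

end Cfsg.Agent.Lib.Helper46.OPG
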